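import Mathlib
import Cfsg.Prelude.Def_Characters
import Cfsg.Agent.Lib.Helper3.CharValues
import Cfsg.Agent.Lib.Helper3.Burnside

/-!
# PF12 packages (NS) and (LS): two sums of squares

* `nside_sum_sq`: for an irreducible character `ζ` of `N` vanishing off the proper normal
  subgroup `K` with `ζ 1 = |N : K|`, the sum over `K \ {1}` of `‖ζ k + γ‖ ^ 2`.
* `lside_sum_sq`: if the averages of `g` over the cosets `x H'`, `x ∉ H'`, are all equal to `c`,
  then `(|H| - |H'|) ‖c‖ ^ 2 ≤ ∑_{h ≠ 1} ‖g h‖ ^ 2`.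
-/

set_option autoImplicit false

namespace Cfsg.Agent.Lib.Helper95.PF12

open Cfsg
open scoped ComplexConjugate

universe u

theorem finsum_mem_eq_sum_ite95 {α : Type*} [Fintype α] (S : Set α) [DecidablePred (· ∈ S)]
    (f : α → ℝ) : ∑ᶠ a ∈ S, f a = ∑ a, if a ∈ S then f a else 0 := by
  rw [finsum_mem_def, finsum_eq_sum_of_fintype]
  refine Finset.sum_congr rfl fun a _ => ?_
  by_cases h : a ∈ S <;> simp [h]

theorem norm_add_real_sq95 (z : ℂ) (γ : ℝ) :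
    ‖z + (γ : ℂ)‖ ^ 2 = ‖z‖ ^ 2 + 2 * γ * z.re + γ ^ 2 := by
  rw [Complex.sq_norm, Complex.sq_norm, Complex.normSq_apply, Complex.normSq_apply]
  simp only [Complex.add_re, Complex.add_im, Complex.ofReal_re, Complex.ofReal_im, add_zero]
  ring

theorem nside_sum_sq {N : Type u} [Group N] [Fintype N] (K : Subgroup N) [K.Normal] (ζ : N → ℂ)
    (hζ : IsIrrCharacter N ζ) (hvan : ∀ x : N, x ∉ K → ζ x = 0) (hdeg : ζ 1 = (K.index : ℂ))
    (hK : K ≠ ⊤) (γ : ℝ) :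
    ∑ᶠ k ∈ {k : N | k ∈ K ∧ k ≠ 1}, ‖ζ k + (γ : ℂ)‖ ^ 2 =
      (Nat.card N : ℝ) - (K.index : ℝ) ^ 2 - 2 * γ * K.index + γ ^ 2 * ((Nat.card K : ℝ) - 1) := by
  classical
  have hN0 : (Nat.card N : ℂ) ≠ 0 := by
    exact_mod_cast (Nat.card_pos (α := N)).ne'
  have h1 := Cfsg.Agent.Lib.Helper3.classInner_irr_self hζ
  have hne : ζ ≠ fun _ => (1 : ℂ) := by
    intro h
    obtain ⟨x, hx⟩ : ∃ x : N, x ∉ K := by
      by_contra hcon
      push Not at hcon
      exact hK (eq_top_iff.mpr fun x _ => hcon x)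
    have h0 := hvan x hx
    rw [h] at h0
    exact one_ne_zero h0
  have h2 := Cfsg.Agent.Lib.Helper3.classInner_irr_ne hζ
    (Cfsg.Agent.Lib.Helper3.isIrrCharacter_one (G := N)) hne
  unfold classInner at h1 h2
  have hs1 : ∑ g : N, ζ g * conj (ζ g) = (Nat.card N : ℂ) := by
    have := congrArg (fun t => (Nat.card N : ℂ) * t) h1
    simpa [← mul_assoc, mul_inv_cancel₀ hN0] using this
  have hs2 : ∑ g : N, ζ g = 0 := by
    rcases mul_eq_zero.mp h2 with h | h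
    · exact absurd (inv_eq_zero.mp h) hN0
    · simpa using h
  have hs1' : ∑ g : N, ‖ζ g‖ ^ 2 = (Nat.card N : ℝ) := by
    have : ((∑ g : N, ‖ζ g‖ ^ 2 : ℝ) : ℂ) = ((Nat.card N : ℝ) : ℂ) := by
      push_cast
      rw [← hs1]
      refine Finset.sum_congr rfl fun g _ => ?_
      rw [Complex.mul_conj']
    exact_mod_cast this
  have hs2' : ∑ g : N, (ζ g).re = 0 := by
    have := congrArg Complex.re hs2
    simpa using this
  have hcardK : (∑ k : N, if k ∈ K then (1 : ℝ) else 0) = (Nat.card K : ℝ) := by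
    rw [Finset.sum_boole]
    congr 1
    rw [Nat.card_eq_fintype_card, Fintype.card_subtype]
  have hdeg' : ‖ζ 1 + (γ : ℂ)‖ ^ 2 = ((K.index : ℝ) + γ) ^ 2 := by
    rw [hdeg]
    have : ((K.index : ℂ) + (γ : ℂ)) = (((K.index : ℝ) + γ : ℝ) : ℂ) := by push_cast; rfl
    rw [this, Complex.norm_real, Real.norm_eq_abs, sq_abs]
  rw [finsum_mem_eq_sum_ite95]
  have hterm : ∀ k : N, (if k ∈ {k : N | k ∈ K ∧ k ≠ 1} then ‖ζ k + (γ : ℂ)‖ ^ 2 else 0) =
      ‖ζ k‖ ^ 2 + 2 * γ * (ζ k).re + γ ^ 2 * (if k ∈ K then (1 : ℝ) else 0)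
        - (if k = 1 then ‖ζ 1 + (γ : ℂ)‖ ^ 2 else 0) := by
    intro k
    by_cases hk1 : k = 1
    · subst hk1
      simp only [Set.mem_ofPred_eq, ne_eq, not_true_eq_false, and_false, if_false, K.one_mem,
        if_true]
      rw [norm_add_real_sq95]; ring
    · by_cases hkK : k ∈ K
      · simp only [Set.mem_ofPred_eq, ne_eq, hkK, hk1, not_false_eq_true, and_self, if_true,
          if_false]
        rw [norm_add_real_sq95]; ring
      · simp only [Set.mem_ofPred_eq, ne_eq, hkK, hk1, false_and, if_false]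
        rw [hvan k hkK]; simp
  rw [Finset.sum_congr rfl fun k _ => hterm k]
  rw [Finset.sum_sub_distrib, Finset.sum_add_distrib, Finset.sum_add_distrib, hs1',
    ← Finset.mul_sum, hs2', ← Finset.mul_sum, hcardK, Finset.sum_ite_eq' Finset.univ (1 : N),
    if_pos (Finset.mem_univ _), hdeg']
  ring

theorem coset_avg_sum_sq95 {H : Type u} [Group H] [Fintype H] (D : Subgroup H) [Fintype D]
    (g : H → ℂ) (c : ℂ)
    (havg : ∀ x : H, x ∉ D → (Nat.card D : ℂ)⁻¹ * ∑ z : D, g (x * z) = c) :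
    ((Nat.card H : ℝ) - Nat.card D) * ‖c‖ ^ 2 ≤ ∑ᶠ h ∈ {h : H | h ≠ 1}, ‖g h‖ ^ 2 := by
  classical
  have hdpos : 0 < (Nat.card D : ℝ) := by exact_mod_cast (Nat.card_pos (α := D))
  have hd0 : (Nat.card D : ℂ) ≠ 0 := by exact_mod_cast (Nat.card_pos (α := D)).ne'
  have hcardD : (Finset.univ : Finset D).card = Nat.card D := by
    rw [Finset.card_univ, Nat.card_eq_fintype_card]
  rw [finsum_mem_eq_sum_ite95]
  -- step 1: drop to the complement of `D`
  have hstep1 : (∑ h : H, if h ∈ D then 0 else ‖g h‖ ^ 2) ≤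
      ∑ h : H, if h ∈ {h : H | h ≠ 1} then ‖g h‖ ^ 2 else 0 := by
    refine Finset.sum_le_sum fun h _ => ?_
    by_cases hh : h ∈ D
    · rw [if_pos hh]; split_ifs <;> positivity
    · have h1 : h ≠ 1 := fun h1 => hh (h1 ▸ D.one_mem)
      rw [if_neg hh, if_pos (show h ∈ {h : H | h ≠ 1} from h1)]
  refine le_trans ?_ hstep1
  -- step 2: translation invariance
  have htrans : ∀ z : D, (∑ h : H, if h ∈ D then 0 else ‖g h‖ ^ 2) =
      ∑ h : H, if h ∈ D then 0 else ‖g (h * z)‖ ^ 2 := by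
    intro z
    rw [← Equiv.sum_comp (Equiv.mulRight (z : H))]
    refine Finset.sum_congr rfl fun h _ => ?_
    have : h * (z : H) ∈ D ↔ h ∈ D := D.mul_mem_cancel_right z.2
    simp only [Equiv.coe_mulRight, this]
  have hsum : (Nat.card D : ℝ) * (∑ h : H, if h ∈ D then 0 else ‖g h‖ ^ 2) =
      ∑ h : H, if h ∈ D then 0 else ∑ z : D, ‖g (h * z)‖ ^ 2 := by
    have : (Nat.card D : ℝ) * (∑ h : H, if h ∈ D then 0 else ‖g h‖ ^ 2) =
        ∑ z : D, ∑ h : H, if h ∈ D then 0 else ‖g (h * z)‖ ^ 2 := by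
      rw [Finset.sum_congr rfl fun z _ => (htrans z).symm, Finset.sum_const, hcardD,
        nsmul_eq_mul]
    rw [this, Finset.sum_comm]
    refine Finset.sum_congr rfl fun h _ => ?_
    by_cases hh : h ∈ D
    · simp [hh]
    · simp [hh]
  -- step 3: Cauchy-Schwarz on each coset
  have hcs : ∀ h : H, h ∉ D → (Nat.card D : ℝ) * ‖c‖ ^ 2 ≤ ∑ z : D, ‖g (h * z)‖ ^ 2 := by
    intro h hh
    have hc : (Nat.card D : ℂ) * c = ∑ z : D, g (h * z) := by
      rw [← havg h hh, ← mul_assoc, mul_inv_cancel₀ hd0, one_mul]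
    have hn : (Nat.card D : ℝ) * ‖c‖ ≤ ∑ z : D, ‖g (h * z)‖ := by
      have := norm_sum_le (Finset.univ : Finset D) (fun z => g (h * z))
      rw [← hc, norm_mul] at this
      simpa using this
    have hcs := sq_sum_le_card_mul_sum_sq (s := (Finset.univ : Finset D))
      (f := fun z => ‖g (h * z)‖)
    rw [hcardD] at hcs
    have h3 : ((Nat.card D : ℝ) * ‖c‖) ^ 2 ≤ (∑ z : D, ‖g (h * z)‖) ^ 2 :=
      pow_le_pow_left₀ (by positivity) hn 2
    have h4 : (Nat.card D : ℝ) * ((Nat.card D : ℝ) * ‖c‖ ^ 2) ≤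
        (Nat.card D : ℝ) * ∑ z : D, ‖g (h * z)‖ ^ 2 := by
      calc (Nat.card D : ℝ) * ((Nat.card D : ℝ) * ‖c‖ ^ 2)
          = ((Nat.card D : ℝ) * ‖c‖) ^ 2 := by ring
        _ ≤ (∑ z : D, ‖g (h * z)‖) ^ 2 := h3
        _ ≤ (Nat.card D : ℝ) * ∑ z : D, ‖g (h * z)‖ ^ 2 := hcs
    exact le_of_mul_le_mul_left h4 hdpos
  -- step 4: count
  have hcount : (∑ h : H, if h ∈ D then (0 : ℝ) else (Nat.card D : ℝ) * ‖c‖ ^ 2) =
      ((Nat.card H : ℝ) - Nat.card D) * ((Nat.card D : ℝ) * ‖c‖ ^ 2) := by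
    have h1 : (∑ h : H, if h ∈ D then (0 : ℝ) else (Nat.card D : ℝ) * ‖c‖ ^ 2) =
        ∑ h : H, ((Nat.card D : ℝ) * ‖c‖ ^ 2 - if h ∈ D then (Nat.card D : ℝ) * ‖c‖ ^ 2 else 0) := by
      refine Finset.sum_congr rfl fun h _ => ?_
      by_cases hh : h ∈ D <;> simp [hh]
    rw [h1, Finset.sum_sub_distrib, Finset.sum_const, Finset.card_univ, nsmul_eq_mul,
      ← Finset.sum_filter, Finset.sum_const, nsmul_eq_mul]
    have h2 : ((Finset.univ.filter fun h : H => h ∈ D).card : ℝ) = (Nat.card D : ℝ) := by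
      congr 1
      rw [Nat.card_eq_fintype_card, Fintype.card_subtype]
    rw [h2, ← Nat.card_eq_fintype_card]
    ring
  have hfin : ((Nat.card H : ℝ) - Nat.card D) * ((Nat.card D : ℝ) * ‖c‖ ^ 2) ≤
      (Nat.card D : ℝ) * (∑ h : H, if h ∈ D then 0 else ‖g h‖ ^ 2) := by
    rw [hsum, ← hcount]
    refine Finset.sum_le_sum fun h _ => ?_
    by_cases hh : h ∈ D
    · simp [hh]
    · simpa [hh] using hcs h hh
  have hfin' : (Nat.card D : ℝ) * (((Nat.card H : ℝ) - Nat.card D) * ‖c‖ ^ 2) ≤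
      (Nat.card D : ℝ) * (∑ h : H, if h ∈ D then 0 else ‖g h‖ ^ 2) := by
    calc (Nat.card D : ℝ) * (((Nat.card H : ℝ) - Nat.card D) * ‖c‖ ^ 2)
        = ((Nat.card H : ℝ) - Nat.card D) * ((Nat.card D : ℝ) * ‖c‖ ^ 2) := by ring
      _ ≤ _ := hfin
  exact le_of_mul_le_mul_left hfin' hdpos

theorem lside_sum_sq {H : Type u} [Group H] [Fintype H] [Fintype (commutator H)] (g : H → ℂ)
    (c : ℂ)
    (havg : ∀ x : H, x ∉ commutator H →
      (Nat.card (commutator H) : ℂ)⁻¹ * ∑ z : commutator H, g (x * z) = c) :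
    ((Nat.card H : ℝ) - Nat.card (commutator H)) * ‖c‖ ^ 2 ≤
      ∑ᶠ h ∈ {h : H | h ≠ 1}, ‖g h‖ ^ 2 :=
  coset_avg_sum_sq95 (commutator H) g c havg

end Cfsg.Agent.Lib.Helper95.PF12
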