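import Mathlib

/-!
# PF12, GAP (1): the pure group-theoretic core of the minimal-prime descent

`T` a finite nilpotent subgroup, `A ≤ T` of order `p ^ 2` and exponent `p` containing every element of
order dividing `p` that centralizes it; `b` an element normalizing `T` with `b ^ q = 1` and no
non-identity fixed point on `T`.  Then `q < p` (for odd primes `p ≠ q`).
-/

set_option autoImplicit false

namespace Cfsg.Agent.Lib.Helper95.PF12

variable {G : Type*} [Group G]

/-- `Ω₁(Z(P))` for the `p`-part `P` of `T`, written without Sylow subgroups: the elements `z ∈ T` with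
`z ^ p = 1` that commute with every `p`-element of `T`. -/
def omegaCenter (T : Subgroup G) (p : ℕ) : Subgroup G where
  carrier := {z | z ∈ T ∧ z ^ p = 1 ∧ ∀ x ∈ T, (∃ k : ℕ, x ^ (p ^ k) = 1) → x * z = z * x}
  one_mem' := ⟨T.one_mem, one_pow _, fun x _ _ => by rw [mul_one, one_mul]⟩
  mul_mem' := by
    rintro a b ⟨haT, hap, hac⟩ ⟨hbT, hbp, hbc⟩
    refine ⟨T.mul_mem haT hbT, ?_, ?_⟩
    · have hcomm : Commute a b := hbc a haT ⟨1, by rw [pow_one]; exact hap⟩
      rw [hcomm.mul_pow, hap, hbp, one_mul]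
    · intro x hx hxp
      rw [← mul_assoc, hac x hx hxp, mul_assoc, hbc x hx hxp, mul_assoc]
  inv_mem' := by
    rintro a ⟨haT, hap, hac⟩
    refine ⟨T.inv_mem haT, by rw [inv_pow, hap, inv_one], ?_⟩
    intro x hx hxp
    have h := hac x hx hxp
    calc x * a⁻¹ = a⁻¹ * (a * x) * a⁻¹ := by group
      _ = a⁻¹ * (x * a) * a⁻¹ := by rw [h]
      _ = a⁻¹ * x := by group

theorem mem_omegaCenter {T : Subgroup G} {p : ℕ} {z : G} :
    z ∈ omegaCenter T p ↔
      z ∈ T ∧ z ^ p = 1 ∧ ∀ x ∈ T, (∃ k : ℕ, x ^ (p ^ k) = 1) → x * z = z * x := Iff.rfl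

/-- The normalizer of `T` normalizes `omegaCenter T p`. -/
theorem conj_mem_omegaCenter {T : Subgroup G} {p : ℕ} {b : G}
    (hb : b ∈ Subgroup.normalizer (T : Set G)) {z : G} (hz : z ∈ omegaCenter T p) :
    b * z * b⁻¹ ∈ omegaCenter T p := by
  obtain ⟨hzT, hzp, hzc⟩ := hz
  refine ⟨(Subgroup.mem_normalizer_iff.mp hb z).mp hzT, ?_, ?_⟩
  · rw [conj_pow, hzp, mul_one, mul_inv_cancel]
  · intro x hx ⟨k, hxk⟩
    have hb' : b⁻¹ ∈ Subgroup.normalizer (T : Set G) := Subgroup.inv_mem _ hb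
    have hx' : b⁻¹ * x * b⁻¹⁻¹ ∈ T := (Subgroup.mem_normalizer_iff.mp hb' x).mp hx
    have hxk' : (b⁻¹ * x * b⁻¹⁻¹) ^ (p ^ k) = 1 := by
      rw [conj_pow, hxk, mul_one, mul_inv_cancel]
    have h := hzc _ hx' ⟨k, hxk'⟩
    calc x * (b * z * b⁻¹) = b * ((b⁻¹ * x * b⁻¹⁻¹) * z) * b⁻¹ := by group
      _ = b * (z * (b⁻¹ * x * b⁻¹⁻¹)) * b⁻¹ := by rw [h]
      _ = b * z * b⁻¹ * x := by group

/-- In a finite nilpotent subgroup `T` of order divisible by `p`, `omegaCenter T p` is nontrivial. -/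
theorem omegaCenter_ne_bot [Finite G] {T : Subgroup G} {p : ℕ} [Fact p.Prime]
    (hnil : Group.IsNilpotent T) (hpT : p ∣ Nat.card T) : omegaCenter T p ≠ ⊥ := by
  classical
  have hpp : p.Prime := Fact.out
  let P : Sylow p T := default
  have hPne : (P : Subgroup T) ≠ ⊥ := P.ne_bot_of_dvd_card hpT
  have : Nontrivial (P : Subgroup T) := (Subgroup.nontrivial_iff_ne_bot _).mpr hPne
  have hcn : Nontrivial (Subgroup.center (P : Subgroup T)) := P.isPGroup'.center_nontrivial
  have hpc : p ∣ Nat.card (Subgroup.center (P : Subgroup T)) := by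
    obtain ⟨n, hn0, hn⟩ :=
      (P.isPGroup'.to_subgroup (Subgroup.center (P : Subgroup T))).nontrivial_iff_card.mp hcn
    rw [hn]
    exact dvd_pow_self p hn0.ne'
  obtain ⟨c, hc⟩ := exists_prime_orderOf_dvd_card' p hpc
  -- the element of `G`
  let z : G := (((c : (P : Subgroup T)) : T) : G)
  have hz1 : z ≠ 1 := by
    intro h
    have hc1 : c = 1 := by
      apply Subtype.ext; apply Subtype.ext; apply Subtype.ext
      exact h
    rw [hc1, orderOf_one] at hc
    exact hpp.one_lt.ne hc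
  have hzp : z ^ p = 1 := by
    have h1 : c ^ p = 1 := by
      have h0 := pow_orderOf_eq_one c
      rwa [hc] at h0
    have h2 := congrArg (fun t : Subgroup.center (P : Subgroup T) => (((t : (P : Subgroup T)) : T) : G)) h1
    simpa using h2
  have hzmem : z ∈ omegaCenter T p := by
    refine ⟨(c : (P : Subgroup T)).1.2, hzp, ?_⟩
    intro x hx ⟨k, hxk⟩
    -- `x` lies in `P`
    have hxP : (⟨x, hx⟩ : T) ∈ (P : Subgroup T) := by
      have hpg : IsPGroup p (Subgroup.zpowers (⟨x, hx⟩ : T)) := by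
        rintro ⟨y, hy⟩
        obtain ⟨i, rfl⟩ := Subgroup.mem_zpowers_iff.mp hy
        refine ⟨k, Subtype.ext ?_⟩
        apply Subtype.ext
        show (x ^ i) ^ p ^ k = 1
        rw [← zpow_natCast, ← zpow_mul, mul_comm, zpow_mul, zpow_natCast, hxk, one_zpow]
      obtain ⟨Q, hQ⟩ := hpg.exists_le_sylow
      obtain ⟨g, hg⟩ := MulAction.exists_smul_eq T Q P
      have hQn : (Q : Subgroup T).Normal := inferInstance
      have hQP : Q = P := by rw [← hg, Sylow.smul_eq_of_normal]
      rw [← hQP]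
      exact hQ (Subgroup.mem_zpowers _)
    have hcomm := Subgroup.mem_center_iff.mp c.2 ⟨⟨x, hx⟩, hxP⟩
    have h2 := congrArg (fun t : (P : Subgroup T) => ((t : T) : G)) hcomm
    exact h2
  intro hbot
  rw [hbot, Subgroup.mem_bot] at hzmem
  exact hz1 hzmem

/-- **Descent core.**  `T` nilpotent, `A ≤ T` of order `p ^ 2` and exponent `p`, containing every
element of order dividing `p` centralizing `A`; `b` normalizes `T`, `b ^ q = 1`, and `b` centralizes no
non-identity element of `T`.  Then `q < p` (`p`, `q` distinct odd primes). -/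
theorem lt_of_fixedPointFree [Finite G] {p q : ℕ} [Fact p.Prime] [Fact q.Prime]
    (T A : Subgroup G) (hnil : Group.IsNilpotent T) (hAT : A ≤ T) (hAcard : Nat.card A = p ^ 2)
    (hApow : ∀ a ∈ A, a ^ p = 1)
    (hcent : ∀ z : G, z ^ p = 1 → (∀ a ∈ A, a * z = z * a) → z ∈ A)
    (b : G) (hb : b ∈ Subgroup.normalizer (T : Set G)) (hbq : b ^ q = 1)
    (hfix : ∀ t ∈ T, b * t = t * b → t = 1)
    (hqp : q ≠ p) (hp2 : p ≠ 2) (hq2 : q ≠ 2) : q < p := by
  classical
  have hpp : p.Prime := Fact.out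
  have hqq : q.Prime := Fact.out
  set Z : Subgroup G := omegaCenter T p with hZdef
  have hpT : p ∣ Nat.card T := by
    have h1 := Subgroup.card_dvd_of_le hAT
    rw [hAcard] at h1
    exact (dvd_pow_self p two_ne_zero).trans h1
  have hZne : Z ≠ ⊥ := omegaCenter_ne_bot hnil hpT
  have hZA : Z ≤ A := by
    intro z hz
    obtain ⟨-, hzp, hzc⟩ := hz
    exact hcent z hzp (fun a ha => hzc a (hAT ha) ⟨1, by rw [pow_one]; exact hApow a ha⟩)
  have hZdvd : Nat.card Z ∣ p ^ 2 := hAcard ▸ Subgroup.card_dvd_of_le hZA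
  let _ : Fintype Z := Fintype.ofFinite Z
  let f : Function.End Z := fun a => ⟨b * a * b⁻¹, conj_mem_omegaCenter hb a.2⟩
  have hfpow : ∀ k : ℕ, ∀ a : Z, (((f ^ k) a : Z) : G) = b ^ k * a * (b ^ k)⁻¹ := by
    intro k
    induction k with
    | zero =>
      intro a
      rw [pow_zero, pow_zero]
      show (a : G) = 1 * a * 1⁻¹
      group
    | succ k ih =>
      intro a
      have h1 : (f ^ (k + 1)) a = (f ^ k) (f a) := by rw [pow_succ]; rfl
      rw [h1, ih (f a)]
      show b ^ k * (b * a * b⁻¹) * (b ^ k)⁻¹ = b ^ (k + 1) * a * (b ^ (k + 1))⁻¹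
      rw [pow_succ]
      group
  have hf : f ^ q ^ 1 = 1 := by
    funext a
    apply Subtype.ext
    rw [pow_one, hfpow q a, hbq]
    show (1 : G) * (a : G) * 1⁻¹ = a
    group
  have hmod := Equiv.Perm.card_fixedPoints_modEq (p := q) (n := 1) hf
  rw [← Nat.card_eq_fintype_card, ← Nat.card_eq_fintype_card] at hmod
  have hfixed : Function.fixedPoints f = {1} := by
    ext a
    rw [Function.mem_fixedPoints, Function.IsFixedPt, Set.mem_singleton_iff]
    constructor
    · intro h
      have h2 : b * (a : G) * b⁻¹ = a := congrArg Subtype.val h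
      have h3 : b * (a : G) = a * b := by
        calc b * (a : G) = (b * (a : G) * b⁻¹) * b := by group
          _ = a * b := by rw [h2]
      exact Subtype.ext (hfix a a.2.1 h3)
    · rintro rfl
      apply Subtype.ext
      show b * ((1 : Z) : G) * b⁻¹ = ((1 : Z) : G)
      rw [Subgroup.coe_one, mul_one, mul_inv_cancel]
  have hcard1 : Nat.card (Function.fixedPoints f) = 1 := by
    rw [hfixed]; exact Nat.card_unique
  rw [hcard1] at hmod
  obtain ⟨m, hm2, hm⟩ := (Nat.dvd_prime_pow hpp).mp hZdvd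
  have hm0 : m ≠ 0 := by
    intro h0
    rw [h0, pow_zero] at hm
    exact hZne (Subgroup.card_eq_one.mp hm)
  rw [hm] at hmod
  -- `q ∣ p ^ m - 1`
  have hdvd : q ∣ p ^ m - 1 := (Nat.modEq_iff_dvd' (Nat.one_le_pow _ _ hpp.pos)).mp hmod.symm
  have hp_odd : Odd p := hpp.odd_of_ne_two hp2
  have hq_odd : Odd q := hqq.odd_of_ne_two hq2
  have hm12 : m = 1 ∨ m = 2 := by omega
  have key : q ∣ p - 1 ∨ q ∣ p + 1 := by
    rcases hm12 with rfl | rfl
    · left; rwa [pow_one] at hdvd
    · have h1 : p ^ 2 - 1 = (p - 1) * (p + 1) := by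
        have := hpp.one_le
        zify [this, Nat.one_le_pow 2 p hpp.pos]
        ring
      rw [h1] at hdvd
      exact (Nat.Prime.dvd_mul hqq).mp hdvd
  rcases key with h | h
  · have := Nat.le_of_dvd (by have := hpp.two_le; omega) h
    omega
  · have hle := Nat.le_of_dvd (by omega) h
    rcases Nat.lt_or_ge q p with hlt | hge
    · exact hlt
    · exfalso
      have hq1 : q = p + 1 := by omega
      obtain ⟨i, hi⟩ := hp_odd
      obtain ⟨j, hj⟩ := hq_odd
      omega

end Cfsg.Agent.Lib.Helper95.PF12
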